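import Mathlib
import Cfsg.Agent.Lib.Frob.Thompson
import Cfsg.Agent.Lib.Frob.Complement
import Cfsg.Agent.Lib.FrobCompl.Basic
import Cfsg.Agent.Lib.FrobCompl.SL25
import Cfsg.Agent.Lib.Coprime.Hall
import Cfsg.Agent.Lib.Core.Cores

/-!
Groups with the same order type as a Frobenius group.
-/

namespace CfsgLib.Frob

open Subgroup Cfsg

universe u v

theorem exists_equiv_orderOf {F G : Type*} [Group F] [Finite F] [Group G] [Finite G]
    (hT : ∀ m : ℕ, Nat.card {g : F // orderOf g = m} = Nat.card {h : G // orderOf h = m}) :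
    ∃ e : F ≃ G, ∀ x, orderOf (e x) = orderOf x :=
  ⟨Equiv.ofFiberEquiv fun m => (Finite.card_eq.1 (hT m)).some,
    fun x => Equiv.ofFiberEquiv_map (f := fun x : F => orderOf x) (g := fun x : G => orderOf x) _ x⟩

theorem sylow_normal_of_orderType {F G : Type*} [Group F] [Finite F] [Group G] [Finite G]
    (e : F ≃ G) (he : ∀ x, orderOf (e x) = orderOf x) {p : ℕ} [Fact p.Prime] (P : Sylow p F)
    (hP : (P : Subgroup F).Normal) (Q : Sylow p G) : (Q : Subgroup G).Normal := by
  have hc : Nat.card Q = Nat.card P := by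
    rw [Sylow.card_eq_multiplicity, Sylow.card_eq_multiplicity, Nat.card_congr e]
  have h1 : (Q : Set G) = {y | orderOf y ∣ Nat.card Q} := by
    refine Set.eq_of_subset_of_ncard_le (fun y hy => Subgroup.orderOf_dvd_natCard _ hy) ?_
      (Set.toFinite _)
    refine le_trans (Set.ncard_le_ncard_of_injOn e.symm (t := (P : Set F)) (fun y hy => ?_)
      e.symm.injective.injOn (Set.toFinite _)) hc.ge
    have h2 : orderOf (e.symm y) ∣ Nat.card P := by
      rw [← he, e.apply_symm_apply, ← hc]; exact hy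
    rw [Sylow.card_eq_multiplicity] at h2
    obtain ⟨k, -, hk⟩ := (Nat.dvd_prime_pow Fact.out).1 h2
    obtain ⟨R, hR⟩ := (IsPGroup.of_card ((Nat.card_zpowers _).trans hk)).exists_le_sylow
    have := Sylow.unique_of_normal P hP
    exact Subsingleton.elim R P ▸ hR (mem_zpowers _)
  refine ⟨fun y hy g => ?_⟩
  have h3 : y ∈ {y | orderOf y ∣ Nat.card Q} := h1 ▸ hy
  have h4 : g * y * g⁻¹ ∈ {y | orderOf y ∣ Nat.card Q} := by
    rw [Set.mem_ofPred_eq, ← MulAut.conj_apply, MulEquiv.orderOf_eq]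
    exact h3
  rw [← h1] at h4
  exact h4

theorem exists_normal_sylow_of_nilpotent {F : Type*} [Group F] [Finite F] (N : Subgroup F)
    [N.Normal] (hN : Group.IsNilpotent N) {p : ℕ} [Fact p.Prime] (hp : ¬ p ∣ N.index) :
    ∃ P : Sylow p F, (P : Subgroup F).Normal := by
  obtain ⟨P⟩ : Nonempty (Sylow p N) := inferInstance
  have h1 : (P : Subgroup N).Normal := inferInstance
  have := P.characteristic_of_normal h1
  refine ⟨(P.isPGroup'.map N.subtype).toSylow ?_,
    (inferInstance : ((P : Subgroup N).map N.subtype).Normal)⟩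
  rw [index_map_subtype]
  exact fun h => ((Nat.Prime.dvd_mul Fact.out).1 h).elim P.not_dvd_index hp

/-- A group with the order type of a Frobenius group is a Frobenius group, with a complement of
the same order. -/
theorem frob_of_orderType {F G : Type*} [Group F] [Finite F] [Group G] [Finite G]
    (e : F ≃ G) (he : ∀ x, orderOf (e x) = orderOf x) {C : Subgroup F}
    (hC : IsFrobeniusComplement C) :
    ∃ D : Subgroup G, IsFrobeniusComplement D ∧ Nat.card D = Nat.card C := by
  obtain ⟨N, -, hNn, hc, hN1, hfpf, hnil⟩ := exists_nilpotent_kernel hC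
  have hcop : (Nat.card N).Coprime (Nat.card C) := by
    rw [← hc.index_eq_card]; exact (frob_coprime_card_index hC).symm
  have hG : Nat.card N * Nat.card C = Nat.card G := by rw [hc.card_mul_card, Nat.card_congr e]
  let L := Core.ordCore (fun n => n.Coprime (Nat.card C)) G
  have hLn : L.Normal := Core.ordCore_normal _ _
  have hL1 : (Nat.card L).Coprime (Nat.card C) := (Core.isOrdClass_coprime _).card_ordCore G
  have hL : Nat.card L = Nat.card N := by
    refine Nat.dvd_antisymm (hL1.dvd_of_dvd_mul_right (hG ▸ card_subgroup_dvd_card L)) ?_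
    refine (Nat.dvd_iff_prime_pow_dvd_dvd _ _).2 fun p k hp hk => ?_
    rcases Nat.eq_zero_or_pos k with rfl | hk0
    · simp
    have := Fact.mk hp
    have hpC : p.Coprime (Nat.card C) :=
      hcop.coprime_dvd_left ((dvd_pow_self p hk0.ne').trans hk)
    obtain ⟨P, hP⟩ := exists_normal_sylow_of_nilpotent N hnil (p := p) (by
      rw [hc.symm.index_eq_card]; exact (Nat.Prime.coprime_iff_not_dvd hp).1 hpC)
    obtain ⟨Q⟩ : Nonempty (Sylow p G) := inferInstance
    have := sylow_normal_of_orderType e he P hP Q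
    have hQ : (Q : Subgroup G) ≤ L := Core.le_ordCore (by
      show (Nat.card Q).Coprime _
      rw [Sylow.card_eq_multiplicity]; exact hpC.pow_left _)
    refine dvd_trans ?_ (card_dvd_of_le hQ)
    show _ ∣ Nat.card Q
    rw [Sylow.card_eq_multiplicity]
    refine pow_dvd_pow p ((hp.pow_dvd_iff_le_factorization Nat.card_pos.ne').1 ?_)
    exact hk.trans (hG ▸ dvd_mul_right _ _)
  have hi : L.index = Nat.card C := by
    have := L.card_mul_index
    rw [← hG, hL] at this
    exact Nat.eq_of_mul_eq_mul_left Nat.card_pos this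
  obtain ⟨D, hD⟩ := exists_right_complement'_of_coprime (N := L) (hi ▸ hL1)
  have hDc : Nat.card D = Nat.card C := by rw [← hi, hD.symm.index_eq_card]
  refine ⟨D, frob_of_fpf hD ?_ ?_ fun d hd hd1 => (eq_bot_iff_forall _).2 fun x hx => ?_, hDc⟩
  · rw [← one_lt_card_iff_ne_bot] at hN1 ⊢
    rwa [hL]
  · have := hC.1
    rw [← one_lt_card_iff_ne_bot] at this ⊢
    rwa [hDc]
  have h1 : orderOf x ∣ Nat.card N := hL ▸ Subgroup.orderOf_dvd_natCard _ hx.1
  have h2 : orderOf d ∣ Nat.card C := hDc ▸ Subgroup.orderOf_dvd_natCard _ hd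
  have h3 : orderOf (e.symm (x * d)) = orderOf x * orderOf d := by
    rw [← he, e.apply_symm_apply]
    exact Commute.orderOf_mul_eq_mul_orderOf_of_coprime (mem_centralizer_singleton_iff.1 hx.2)
      (Nat.Coprime.coprime_dvd_left h1 (hcop.coprime_dvd_right h2))
  by_cases h4 : e.symm (x * d) ∈ N
  · have h5 := (dvd_mul_left _ _).trans (h3 ▸ Subgroup.orderOf_dvd_natCard _ h4)
    exact absurd (orderOf_eq_one_iff.1 (Nat.eq_one_of_dvd_coprimes hcop h5 h2)) hd1
  · obtain ⟨k, -, hk⟩ := exists_conj_mem_of_notMem hc hfpf h4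
    have h5 := Subgroup.orderOf_dvd_natCard _ hk
    rw [← MulAut.conj_apply, MulEquiv.orderOf_eq, h3] at h5
    exact orderOf_eq_one_iff.1 (Nat.eq_one_of_dvd_coprimes hcop h1 ((dvd_mul_right _ _).trans h5))

/-- Zassenhaus' theorem on non-solvable Frobenius complements, as a statement. -/
def NonsolvComplStmt : Prop :=
  ∀ (G : Type u) [Group G] [Finite G], ¬ Group.IsSolvable G → FrobCompl.IsFC G →
    ∃ G₀ : Subgroup G, G₀.Normal ∧ (G₀.index = 1 ∨ G₀.index = 2) ∧
      ∃ S M : Subgroup G, S ⊔ M = G₀ ∧ S ⊓ M = ⊥ ∧ (∀ s ∈ S, ∀ x ∈ M, s * x = x * s) ∧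
        Nonempty (S ≃* Matrix.SpecialLinearGroup (Fin 2) (ZMod 5)) ∧
        (∀ (p : ℕ) [Fact p.Prime] (P : Sylow p M), IsCyclic P) ∧ (Nat.card M).Coprime 30

theorem isFC_of_frob {F : Type*} [Group F] [Finite F] {C : Subgroup F}
    (hC : IsFrobeniusComplement C) : FrobCompl.IsFC C := by
  let f : F ≃* Shrink.{0} F := Shrink.mulEquiv.symm
  exact ⟨_, _, Finite.of_equiv _ f.toEquiv, _, frob_map_equiv hC f, ⟨f.subgroupMap C⟩⟩

theorem sl25_pow : ∀ a b c d : ZMod 5, a * d - b * c = 1 →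
    !![a, b; c, d] ^ 10 = 1 ∨ !![a, b; c, d] ^ 12 = 1 := by
  decide +kernel

theorem sl25_orderOf_ne (s : Matrix.SpecialLinearGroup (Fin 2) (ZMod 5)) : orderOf s ≠ 15 := by
  intro h
  have h1 := sl25_pow (s 0 0) (s 0 1) (s 1 0) (s 1 1) (by rw [← Matrix.det_fin_two, s.det_coe])
  rw [← Matrix.eta_fin_two (s : Matrix (Fin 2) (Fin 2) (ZMod 5))] at h1
  have h2 : ∀ n, (s : Matrix (Fin 2) (Fin 2) (ZMod 5)) ^ n = 1 → 15 ∣ n := fun n hn =>
    h ▸ orderOf_dvd_of_pow_eq_one (Subtype.ext hn)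
  rcases h1 with h1 | h1 <;> exact absurd (h2 _ h1) (by norm_num)

theorem invariants_of_nonsolvable (hZ : NonsolvComplStmt.{u}) {C : Type u} [Group C] [Finite C]
    (hs : ¬ Group.IsSolvable C) (hC : FrobCompl.IsFC C) :
    (∃ n, Nat.card C = 15 * n ∧ Nat.Coprime 15 n) ∧ ∀ x : C, orderOf x ≠ 15 := by
  obtain ⟨G₀, hn, hi, S, M, hsup, hinf, hcomm, ⟨f⟩, -, hM⟩ := hZ C hs hC
  have hMS : M ≤ normalizer (S : Set C) :=
    le_trans (b := centralizer (S : Set C)) (fun x hx s hs => hcomm s hs x hx)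
      (centralizer_le_normalizer _)
  have h15 : Nat.Coprime 15 (Nat.card M) := hM.symm.coprime_dvd_left (by norm_num)
  refine ⟨⟨8 * Nat.card M * G₀.index, ?_, ?_⟩, fun x hx => ?_⟩
  · rw [← G₀.card_mul_index, ← Coprime.card_mul_relIndex_of_le (hsup ▸ le_sup_left : S ≤ G₀),
      ← hsup, Coprime.relIndex_sup_of_le_normalizer hMS, ← inf_relIndex_right, hinf,
      relIndex_bot_left, Nat.card_congr f.toEquiv, FrobCompl.card_SL25]
    ring
  · refine Nat.Coprime.mul_right (Nat.Coprime.mul_right (by norm_num) h15) ?_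
    rcases hi with hi | hi <;> rw [hi] <;> norm_num
  · have h1 : x ^ 2 ∈ G₀ := by
      rcases hi with hi | hi
      · rw [index_eq_one.1 hi]; trivial
      · exact sq_mem_of_index_two hi x
    rw [← hsup] at h1
    obtain ⟨s, hs, y, hy, hsy⟩ := (Coprime.mem_sup_iff_of_le_normalizer hMS).1 h1
    have h2 : orderOf (s * y) = 15 := by rw [hsy, orderOf_pow' _ (by norm_num), hx]; norm_num
    have h3 : s ^ 15 * y ^ 15 = 1 := by
      rw [← Commute.mul_pow (hcomm s hs y hy), ← h2, pow_orderOf_eq_one]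
    have h4 : y ^ 15 = 1 := by
      rw [← mem_bot, ← hinf]
      exact ⟨eq_inv_of_mul_eq_one_right h3 ▸ S.inv_mem (S.pow_mem hs _), M.pow_mem hy _⟩
    have h5 : y = 1 := orderOf_eq_one_iff.1 (Nat.eq_one_of_dvd_coprimes h15
      (orderOf_dvd_of_pow_eq_one h4) (Subgroup.orderOf_dvd_natCard _ hy))
    rw [h5, mul_one] at h2
    exact sl25_orderOf_ne (f ⟨s, hs⟩) (by rw [MulEquiv.orderOf_eq, orderOf_mk, h2])

theorem isSolvable_iff_of_frob {F : Type*} [Group F] [Finite F] {C : Subgroup F}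
    (hC : IsFrobeniusComplement C) : Group.IsSolvable F ↔ Group.IsSolvable C := by
  refine ⟨fun _ => inferInstance, fun h => ?_⟩
  obtain ⟨N, -, hNn, hc, -, -, hnil⟩ := exists_nilpotent_kernel hC
  have : Group.IsSolvable (F ⧸ N) :=
    Group.isSolvable_of_surjective (f := hc.symm.QuotientMulEquiv.symm.toMonoidHom)
      hc.symm.QuotientMulEquiv.symm.surjective
  exact Group.isSolvable_of_ker_le_range N.subtype (QuotientGroup.mk' N) (by simp)

theorem isSolvable_of_orderType (hZ : NonsolvComplStmt.{u}) {F : Type u} {G : Type v} [Group F]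
    [Finite F] [Group G] [Finite G] (e : F ≃ G) (he : ∀ x, orderOf (e x) = orderOf x)
    {C : Subgroup F} (hC : IsFrobeniusComplement C) {D : Subgroup G}
    (hD : IsFrobeniusComplement D) (hcard : Nat.card D = Nat.card C) (hs : Group.IsSolvable G) :
    Group.IsSolvable F := by
  rw [isSolvable_iff_of_frob hC]
  by_contra hns
  obtain ⟨⟨n, hn, hcop⟩, h15⟩ := invariants_of_nonsolvable hZ hns (isFC_of_frob hC)
  obtain ⟨H, hH⟩ := Coprime.exists_card_eq_of_coprime (hcard.trans hn) hcop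
  have := ((pqCond_of_frob hD).subgroup H).isCyclic_of_card_eq_mul Nat.prime_three Nat.prime_five hH
  obtain ⟨x, hx⟩ := IsCyclic.exists_ofOrder_eq_natCard (α := H)
  have h1 : orderOf (e.symm ((x : D) : G)) = 15 := by
    rw [← he, e.apply_symm_apply, orderOf_coe, orderOf_coe, hx, hH]
  obtain ⟨N, -, hNn, hc, -, hfpf, -⟩ := exists_nilpotent_kernel hC
  have h2 : e.symm ((x : D) : G) ∉ N := fun h => by
    have h3 := Subgroup.orderOf_dvd_natCard _ h
    rw [h1, ← hc.index_eq_card] at h3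
    exact absurd (Nat.eq_one_of_dvd_coprimes (frob_coprime_card_index hC) (hn ▸ dvd_mul_right _ _)
      h3) (by norm_num)
  obtain ⟨k, -, hk⟩ := exists_conj_mem_of_notMem hc hfpf h2
  exact h15 ⟨_, hk⟩ (by rw [orderOf_mk, ← MulAut.conj_apply, MulEquiv.orderOf_eq, h1])

theorem frob_orderType (hZ : NonsolvComplStmt.{u}) (hZ' : NonsolvComplStmt.{v}) {F : Type u}
    {G : Type v} [Group F] [Finite F] [Group G] [Finite G]
    (hF : ∃ C : Subgroup F, IsFrobeniusComplement C)
    (hT : ∀ m : ℕ, Nat.card {g : F // orderOf g = m} = Nat.card {h : G // orderOf h = m}) :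
    (∃ C : Subgroup G, IsFrobeniusComplement C) ∧ (Group.IsSolvable G ↔ Group.IsSolvable F) := by
  obtain ⟨C, hC⟩ := hF
  obtain ⟨e, he⟩ := exists_equiv_orderOf hT
  obtain ⟨D, hD, hcard⟩ := frob_of_orderType e he hC
  exact ⟨⟨D, hD⟩, isSolvable_of_orderType hZ e he hC hD hcard,
    isSolvable_of_orderType hZ' e.symm (fun x => by rw [← he, e.apply_symm_apply]) hD hC hcard.symm⟩

end CfsgLib.Frob
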